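import Cfsg.Agent.Uni.Stab

/-!
# The stabiliser of a nondegenerate subspace in `GU`
-/

set_option autoImplicit false
set_option linter.unusedSectionVars false

namespace Cfsg.Agent.Uni

open Finset Matrix Module

variable {F : Type*} [Field F] [Fintype F] {q : ℕ} {n k l : ℕ}

/-- the embedding given by a family of vectors -/
def embF (b : Fin k → Fin n → F) : (Fin k → F) →ₗ[F] (Fin n → F) where
  toFun x := ∑ i, x i • b i
  map_add' x y := by simp only [Pi.add_apply, add_smul, sum_add_distrib]
  map_smul' c x := by simp only [Pi.smul_apply, smul_eq_mul, mul_smul, smul_sum, RingHom.id_apply]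

theorem embF_apply (b : Fin k → Fin n → F) (x : Fin k → F) : embF b x = ∑ i, x i • b i := rfl

/-- the coordinates with respect to a family of vectors -/
def coordF (q : ℕ) (b : Fin k → Fin n → F) : (Fin n → F) →ₗ[F] (Fin k → F) where
  toFun x i := hermForm n F q x (b i)
  map_add' x y := funext fun i => hermForm_add_left _ _ _
  map_smul' c x := funext fun i => hermForm_smul_left _ _ _

theorem coordF_apply (b : Fin k → Fin n → F) (x : Fin n → F) (i : Fin k) :
    coordF q b x i = hermForm n F q x (b i) := rfl

theorem embF_form (hF : Fintype.card F = q ^ 2) {b : Fin k → Fin n → F} (hb : IsON q b)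
    (x y : Fin k → F) : hermForm n F q (embF b x) (embF b y) = hermForm k F q x y := by
  rw [embF_apply, embF_apply, hermForm_sum_left, hermForm_def]
  refine sum_congr rfl fun i _ => ?_
  rw [hermForm_smul_left, hermForm_sum_right hF]
  congr 1
  rw [Finset.sum_eq_single i]
  · rw [hermForm_smul_right, hb, if_pos rfl, mul_one]
  · intro j _ hj
    rw [hermForm_smul_right, hb, if_neg hj.symm, mul_zero]
  · simp

theorem embF_form_zero (hF : Fintype.card F = q ^ 2) {b : Fin k → Fin n → F}
    {c : Fin l → Fin n → F} (hbc : ∀ i j, hermForm n F q (b i) (c j) = 0)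
    (x : Fin k → F) (y : Fin l → F) : hermForm n F q (embF b x) (embF c y) = 0 := by
  rw [embF_apply, embF_apply, hermForm_sum_left]
  refine Finset.sum_eq_zero fun i _ => ?_
  rw [hermForm_smul_left, hermForm_sum_right hF, Finset.sum_eq_zero, mul_zero]
  intro j _
  rw [hermForm_smul_right, hbc, mul_zero]

theorem coordF_embF {b : Fin k → Fin n → F} (hb : IsON q b)
    (x : Fin k → F) : coordF q b (embF b x) = x := by
  funext i
  rw [coordF_apply, embF_apply, hermForm_sum_left, Finset.sum_eq_single i]
  · rw [hermForm_smul_left, hb, if_pos rfl, mul_one]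
  · intro j _ hj
    rw [hermForm_smul_left, hb, if_neg hj, mul_zero]
  · simp

theorem coordF_embF_zero {b : Fin k → Fin n → F}
    {c : Fin l → Fin n → F} (hbc : ∀ j i, hermForm n F q (c j) (b i) = 0)
    (x : Fin l → F) : coordF q b (embF c x) = 0 := by
  funext i
  rw [coordF_apply, embF_apply, hermForm_sum_left]
  refine Finset.sum_eq_zero fun j _ => ?_
  rw [hermForm_smul_left, hbc, mul_zero]

theorem embF_mem (b : Fin k → Fin n → F) (x : Fin k → F) :
    embF b x ∈ Submodule.span F (Set.range b) := by
  rw [embF_apply]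
  exact Submodule.sum_mem _ fun i _ => Submodule.smul_mem _ _ (Submodule.subset_span ⟨i, rfl⟩)

theorem embF_coordF_of_mem (hF : Fintype.card F = q ^ 2) {b : Fin k → Fin n → F} (hb : IsON q b)
    {x : Fin n → F} (hx : x ∈ Submodule.span F (Set.range b)) : embF b (coordF q b x) = x := by
  induction hx using Submodule.span_induction with
  | mem z hz =>
    obtain ⟨i, rfl⟩ := hz
    rw [embF_apply, Finset.sum_eq_single i]
    · rw [coordF_apply, hb, if_pos rfl, one_smul]
    · intro j _ hj
      rw [coordF_apply, hb, if_neg hj.symm, zero_smul]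
    · simp
  | zero => rw [map_zero, map_zero]
  | add x y _ _ hx hy => rw [map_add, map_add, hx, hy]
  | smul c x _ hx => rw [map_smul, map_smul, hx]

variable (q) in
/-- complementary orthonormal families -/
structure Compl (b : Fin k → Fin n → F) (c : Fin l → Fin n → F) : Prop where
  onb : IsON q b
  onc : IsON q c
  bc : ∀ i j, hermForm n F q (b i) (c j) = 0
  cb : ∀ i j, hermForm n F q (c i) (b j) = 0
  sum : ∀ x, embF b (coordF q b x) + embF c (coordF q c x) = x

/-- complementary families adapted to a nondegenerate subspace -/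
theorem ND.exists_compl (hF : Fintype.card F = q ^ 2) {W : Submodule F (Fin n → F)}
    (hW : ND q W) (hk : finrank F W = k) (hl : finrank F (Uni.perp q W) = l) :
    ∃ (b : Fin k → Fin n → F) (c : Fin l → Fin n → F), Compl q b c ∧
      Submodule.span F (Set.range b) = W ∧
      Submodule.span F (Set.range c) = Uni.perp q W := by
  obtain ⟨b, hb, hbW, hbs⟩ := hW.exists_ON hF k hk
  obtain ⟨c, hc, hcW, hcs⟩ := (hW.perp hF).exists_ON hF l hl
  have hcb : ∀ i j, hermForm n F q (c i) (b j) = 0 := fun i j => hcW i _ (hbW j)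
  have hbc : ∀ i j, hermForm n F q (b i) (c j) = 0 :=
    fun i j => (hermForm_eq_zero_comm hF).1 (hcb j i)
  refine ⟨b, c, ⟨hb, hc, hbc, hcb, fun x => ?_⟩, hbs, hcs⟩
  obtain ⟨y, hy, z, hz, rfl⟩ := hW.exists_add hF x
  rw [← hbs] at hy
  rw [← hcs] at hz
  have h1 := embF_coordF_of_mem hF hb hy
  have h2 := embF_coordF_of_mem hF hc hz
  have h3 : coordF q b z = 0 := by
    rw [← h2, coordF_embF_zero hcb]
  have h4 : coordF q c y = 0 := by
    rw [← h1, coordF_embF_zero hbc]
  rw [map_add (coordF q b), map_add (coordF q c), h3, h4, add_zero, zero_add, h1, h2]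

/-- the block element -/
noncomputable def blk (hF : Fintype.card F = q ^ 2) {b : Fin k → Fin n → F}
    {c : Fin l → Fin n → F} (h : Compl q b c) (A : GU k F q) (B : GU l F q) : GU n F q :=
  mkGU hF (LinearMap.toMatrix' (embF b ∘ₗ gmap A ∘ₗ coordF q b + embF c ∘ₗ gmap B ∘ₗ coordF q c))
    (by
      intro x y
      have hM : ∀ x, (LinearMap.toMatrix' (embF b ∘ₗ gmap A ∘ₗ coordF q b +
          embF c ∘ₗ gmap B ∘ₗ coordF q c)) *ᵥ x =
          embF b (gact A (coordF q b x)) + embF c (gact B (coordF q c x)) := by
        intro x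
        rw [← Matrix.toLin'_apply, Matrix.toLin'_toMatrix']; rfl
      rw [hM, hM, hermForm_add_left, hermForm_add_right hF, hermForm_add_right hF,
        embF_form hF h.onb, embF_form hF h.onc, embF_form_zero hF h.bc, embF_form_zero hF h.cb,
        gact_form, gact_form]
      conv_rhs => rw [← h.sum x, ← h.sum y]
      rw [hermForm_add_left, hermForm_add_right hF, hermForm_add_right hF,
        embF_form hF h.onb, embF_form hF h.onc, embF_form_zero hF h.bc, embF_form_zero hF h.cb])

theorem gact_blk (hF : Fintype.card F = q ^ 2) {b : Fin k → Fin n → F}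
    {c : Fin l → Fin n → F} (h : Compl q b c) (A : GU k F q) (B : GU l F q) (x : Fin n → F) :
    gact (blk hF h A B) x = embF b (gact A (coordF q b x)) + embF c (gact B (coordF q c x)) := by
  change (LinearMap.toMatrix' (embF b ∘ₗ gmap A ∘ₗ coordF q b +
          embF c ∘ₗ gmap B ∘ₗ coordF q c)) *ᵥ x = _
  rw [← Matrix.toLin'_apply, Matrix.toLin'_toMatrix']; rfl

/-- the block homomorphism -/
noncomputable def blkHom (hF : Fintype.card F = q ^ 2) {b : Fin k → Fin n → F}
    {c : Fin l → Fin n → F} (h : Compl q b c) : GU k F q × GU l F q →* GU n F q :=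
  MonoidHom.mk' (fun p => blk hF h p.1 p.2) (by
    intro p p'
    apply gact_ext
    intro x
    rw [gact_mul, gact_blk, gact_blk, gact_blk, map_add, map_add, coordF_embF h.onb,
      coordF_embF h.onc, coordF_embF_zero h.cb, coordF_embF_zero h.bc, add_zero, zero_add]
    simp only [Prod.fst_mul, Prod.snd_mul, gact_mul])

theorem blkHom_apply (hF : Fintype.card F = q ^ 2) {b : Fin k → Fin n → F}
    {c : Fin l → Fin n → F} (h : Compl q b c) (p : GU k F q × GU l F q) :
    blkHom hF h p = blk hF h p.1 p.2 := rfl

theorem blkHom_injective (hF : Fintype.card F = q ^ 2) {b : Fin k → Fin n → F}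
    {c : Fin l → Fin n → F} (h : Compl q b c) : Function.Injective (blkHom hF h) := by
  rintro ⟨A, B⟩ ⟨A', B'⟩ hAB
  rw [blkHom_apply, blkHom_apply] at hAB
  have h1 : A = A' := by
    apply gact_ext
    intro x
    have := congrArg (fun g => coordF q b (gact g (embF b x))) hAB
    simpa [gact_blk, coordF_embF h.onb, coordF_embF_zero h.bc, coordF_embF_zero h.cb,
      gact_zero] using this
  have h2 : B = B' := by
    apply gact_ext
    intro x
    have := congrArg (fun g => coordF q c (gact g (embF c x))) hAB
    simpa [gact_blk, coordF_embF h.onc, coordF_embF_zero h.bc, coordF_embF_zero h.cb,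
      gact_zero] using this
  rw [h1, h2]

theorem blkHom_range (hF : Fintype.card F = q ^ 2) {b : Fin k → Fin n → F}
    {c : Fin l → Fin n → F} (h : Compl q b c) :
    (blkHom hF h).range = gstab q (Submodule.span F (Set.range b)) := by
  have hcoord : ∀ x ∈ Submodule.span F (Set.range b), coordF q c x = 0 := by
    intro x hx
    rw [← embF_coordF_of_mem hF h.onb hx, coordF_embF_zero h.bc]
  have hmem : ∀ x, coordF q c x = 0 → x ∈ Submodule.span F (Set.range b) := by
    intro x hx
    rw [← h.sum x, hx, map_zero, add_zero]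
    exact embF_mem b _
  have hmem' : ∀ x, coordF q b x = 0 → x ∈ Submodule.span F (Set.range c) := by
    intro x hx
    rw [← h.sum x, hx, map_zero, zero_add]
    exact embF_mem c _
  ext g
  constructor
  · rintro ⟨⟨A, B⟩, rfl⟩
    rw [mem_gstab]
    intro v
    rw [blkHom_apply, gact_blk]
    constructor
    · intro hv
      rw [hcoord v hv, gact_zero, map_zero, add_zero]
      exact embF_mem b _
    · intro hv
      apply hmem
      have h1 := hcoord _ hv
      rw [map_add, coordF_embF_zero h.bc, coordF_embF h.onc, zero_add] at h1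
      have h2 := congrArg (gact B⁻¹) h1
      rwa [gact_inv_gact, gact_zero] at h2
  · intro hg
    rw [mem_gstab] at hg
    have hg1 : ∀ x, coordF q c (gact g (embF b x)) = 0 :=
      fun x => hcoord _ ((hg _).1 (embF_mem b x))
    have hg2 : ∀ x, coordF q b (gact g (embF c x)) = 0 := by
      intro x
      funext i
      rw [coordF_apply, ← gact_gact_inv g (b i), gact_form]
      have h1 : gact g⁻¹ (b i) ∈ Submodule.span F (Set.range b) := by
        rw [hg, gact_gact_inv]
        exact Submodule.subset_span ⟨i, rfl⟩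
      rw [← embF_coordF_of_mem hF h.onb h1, embF_form_zero hF h.cb]
      rfl
    have hA : ∃ A : GU k F q, ∀ x, gact A x = coordF q b (gact g (embF b x)) := by
      have hM : ∀ x, (LinearMap.toMatrix' (coordF q b ∘ₗ gmap g ∘ₗ embF b)) *ᵥ x =
          coordF q b (gact g (embF b x)) := by
        intro x
        rw [← Matrix.toLin'_apply, Matrix.toLin'_toMatrix']; rfl
      have hp : Pres q (LinearMap.toMatrix' (coordF q b ∘ₗ gmap g ∘ₗ embF b)) := by
        intro x y
        rw [hM, hM, ← embF_form hF h.onb, embF_coordF_of_mem hF h.onb ((hg _).1 (embF_mem b x)),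
          embF_coordF_of_mem hF h.onb ((hg _).1 (embF_mem b y)), gact_form, embF_form hF h.onb]
      exact ⟨mkGU hF _ hp, hM⟩
    have hB : ∃ B : GU l F q, ∀ x, gact B x = coordF q c (gact g (embF c x)) := by
      have hM : ∀ x, (LinearMap.toMatrix' (coordF q c ∘ₗ gmap g ∘ₗ embF c)) *ᵥ x =
          coordF q c (gact g (embF c x)) := by
        intro x
        rw [← Matrix.toLin'_apply, Matrix.toLin'_toMatrix']; rfl
      have hp : Pres q (LinearMap.toMatrix' (coordF q c ∘ₗ gmap g ∘ₗ embF c)) := by
        intro x y
        rw [hM, hM, ← embF_form hF h.onc, embF_coordF_of_mem hF h.onc (hmem' _ (hg2 x)),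
          embF_coordF_of_mem hF h.onc (hmem' _ (hg2 y)), gact_form, embF_form hF h.onc]
      exact ⟨mkGU hF _ hp, hM⟩
    obtain ⟨A, hA⟩ := hA
    obtain ⟨B, hB⟩ := hB
    refine ⟨(A, B), ?_⟩
    apply gact_ext
    intro x
    rw [blkHom_apply, gact_blk, hA, hB]
    rw [embF_coordF_of_mem hF h.onb ((hg _).1 (embF_mem b _)),
      embF_coordF_of_mem hF h.onc (hmem' _ (hg2 _)), ← gact_add, h.sum]

end Cfsg.Agent.Uni
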